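import Cfsg.Agent.FGS.NZ.Defs
import Cfsg.Agent.TECH.QPush3
import Cfsg.Agent.INV.B2.PairA

/-!
# Normalized pairs: basic facts (`Z = oz J`, `Q = Qy J Y`)
-/

set_option autoImplicit false
set_option linter.unusedSectionVars false
open Cfsg Subgroup CL.Th CL.MSS CL.Push CL.BHS CL.B2
open CL.CY (Wq)
open CL.FZ (P2)
open scoped commutatorElement

namespace CL.NZ

variable {X : Type*} [Group X] [Finite X] {G J Y T V D P N : Subgroup X} {a b c g h k s t u v w x y z : X}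

namespace Pq
variable (p : Pq J Y T)
include p

theorem elemY : IsElementaryAbelian 2 Y := p.ey ▸ oz_elem _

theorem YQ : Y ≤ Qy J Y := le_inf p.y.le p.y.ab

theorem ZY : oz J ≤ Y :=
  (le_oz (oz_elem J) (le_inf (oz_le J) ((oz_cent J).trans (centralizer_le p.y.le)))
    ((oz_cent J).trans (centralizer_le (inf_le_left : Qy J Y ≤ J)))).trans p.ey.le

theorem memZ₀ (hy : y ∈ Y) : y ∈ oz J ↔ y ∈ 𝐂 J :=
  ⟨fun m => oz_cent J m, fun m => mem_oz.2 ⟨p.y.le hy, m, (pow_two y).trans (p.y.two y hy)⟩⟩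

/-- `Wq.inf_cent` -/
theorem memZ (hy : y ∈ Y) : y ∈ oz J ↔ y ∈ 𝐂 T :=
  (p.memZ₀ hy).trans (p.t.inf_cent p.y p.symm.nc hy).symm

theorem memZ' (hy : y ∈ Y) : y ∈ oz J ↔ y ∈ 𝐂 J := p.memZ₀ hy

theorem comm (hy : y ∈ Y) (ht : t ∈ T) : ⁅y, t⁆ ∈ oz J := by
  have k1 : ⁅y, t⁆ ∈ Y := by
    rw [commutatorElement_def, mul_assoc, mul_assoc, ← mul_assoc t]
    exact mul_mem hy ((mem_normalizer_iff.1 (p.y.nB (p.t.le ht)) _).1 (inv_mem hy))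
  have k2 : ⁅y, t⁆ ∈ T := mul_mem ((mem_normalizer_iff.1 (p.t.nB (p.y.le hy)) _).1 ht) (inv_mem ht)
  exact (p.memZ k1).2 (p.t.ab k2)

theorem fix (hy : y ∈ Y) (hb : b ∈ J) (n : b ∉ 𝐂 Y) (e : b * y = y * b) : y ∈ oz J :=
  (p.memZ₀ hy).2 (p.y.fix b hb n y hy e)

theorem idxY : (oz J).relIndex Y = (𝐂 Y).relIndex J := by
  rw [p.y.idx, ← inf_relIndex_right, ← inf_relIndex_right (𝐂 J)]
  congr 1
  ext w
  exact and_congr_left fun hw => p.memZ₀ hw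

theorem idx₁ : (𝐂 Y).relIndex T = (𝐂 T).relIndex J := by
  rw [← p.symm.idxY, ← inf_relIndex_right, ← inf_relIndex_right (oz J)]
  congr 1
  ext w
  exact and_congr_left fun hw => (p.symm.memZ hw).symm

theorem idx₂ : (𝐂 T).relIndex J = (𝐂 Y).relIndex J := by
  have k1 := p.idx₁
  have k2 := p.symm.idx₁
  have l1 := relIndex_le_of_le_right (H := 𝐂 Y) p.t.le index_ne_zero_of_finite
  have l2 := relIndex_le_of_le_right (H := 𝐂 T) p.y.le index_ne_zero_of_finite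
  omega

theorem idxT : (oz J).relIndex T = (𝐂 Y).relIndex J := p.symm.idxY.trans p.idx₂

/-- `J = T Q` -/
theorem dec (hb : b ∈ J) : ∃ t ∈ T, t⁻¹ * b ∈ Qy J Y :=
  let ⟨t, ht, e⟩ := CY.BigA.cover (C := 𝐂 Y) p.t.le (p.idx₁.trans p.idx₂) hb
  ⟨t, ht, J.mul_mem (J.inv_mem (p.t.le ht)) hb, e⟩

theorem nQ : J ≤ 𝐍 (Qy J Y) :=
  CL.MSS.le_normalizer_inf le_normalizer (CL.MSS.le_normalizer_centralizer p.y.nB)

theorem normY : 𝐍 (Qy J Y) ≤ 𝐍 Y := by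
  have := norm_oz (p := 2) (Qy J Y)
  rwa [show omegaOneCenter 2 (Qy J Y) = Y from p.ey] at this

theorem normQ : 𝐍 J ⊓ 𝐍 Y ≤ 𝐍 (Qy J Y) :=
  have _ := p.pg
  CL.MSS.le_normalizer_inf inf_le_left (CL.MSS.le_normalizer_centralizer inf_le_right)

theorem normZ : 𝐍 J ≤ 𝐍 (oz J) :=
  have _ := p.pg
  norm_oz J

theorem cardQ : Nat.card (Qy J T) = Nat.card (Qy J Y) := by
  have e1 := QP.card_eq_mul (𝐂 Y) J
  have e2 := QP.card_eq_mul (𝐂 T) J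
  rw [p.idx₂, e1] at e2
  exact (Nat.eq_of_mul_eq_mul_right (Nat.pos_of_ne_zero index_ne_zero_of_finite) e2).symm

theorem side₀ {U : Subgroup X} (hU : U ≤ J) (j : Jt U = U) (c : Nat.card U = Nat.card (Qy J Y))
    (n : ¬ oz U ≤ 𝐂 T) : oz U = Y := by
  have : U ≤ Qy J Y := j.ge.trans (thompsonSubgroupOf_le_iff.2 fun A hA => le_inf (hA.1.trans hU)
    ((le_or_le fun a ha => p.y.invol p.t p.nc (hU (hA.1 ha)) ((pow_two a).symm.trans (hA.2.1.2 a ha))).resolve_right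
      fun e => n ((omegaOne_center_le_of_mem_maxElemAbIn hA).trans e)))
  rw [eq_of_le_of_card_ge this c.ge, p.ey]

theorem cjQ (ha : a ∈ 𝐍 J) : a •ᶜ Qy J Y ≤ J ∧ Jt (a •ᶜ Qy J Y) = a •ᶜ Qy J Y ∧ oz (a •ᶜ Qy J Y) = a •ᶜ Y :=
  ⟨cj_le_of_mem_normalizer inf_le_left ha, by rw [← cj_Jt, p.jy], by rw [← B2.cj_oz, p.ey]⟩

theorem side₁ (ha : a ∈ 𝐍 J) (n : ¬ a •ᶜ Y ≤ 𝐂 Y) : a •ᶜ Y = T := by
  obtain ⟨k1, k2, k3⟩ := p.cjQ ha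
  exact k3 ▸ p.symm.side₀ k1 k2 ((card_cj _ _).trans p.cardQ.symm) (k3.symm ▸ n)

/-- `a Q a⁻¹` is generated by maximal elementary abelian subgroups `A`, which contain `a Y a⁻¹`; by `Wq.invol`
`A ≤ C(Y)` or `A ≤ C(T)`. -/
theorem side (ha : a ∈ 𝐍 J) (n : ¬ a •ᶜ Y ≤ 𝐂 T) : a •ᶜ Y = Y := by
  obtain ⟨k1, k2, k3⟩ := p.cjQ ha
  exact k3 ▸ p.side₀ k1 k2 (card_cj _ _) (k3.symm ▸ n)

theorem side' (ha : a ∈ 𝐍 J) (n : ¬ a •ᶜ Y ≤ 𝐂 Y) : a •ᶜ Y = T ∧ a •ᶜ T = Y :=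
  have e := p.side₁ ha n
  ⟨e, p.symm.side₁ ha fun k => p.symm.nc ((cj_le_cj_iff a).1 (by rwa [cj_centralizer, e]))⟩

theorem normT : 𝐍 J ⊓ 𝐍 Y ≤ 𝐍 T := fun a ha =>
  mem_normalizer_iff_cj.2 (p.symm.side ha.1 fun k => p.symm.nc ((cj_le_cj_iff a).1 (by
    rwa [cj_centralizer, cj_eq_of_mem_normalizer ha.2])))

omit p in
theorem cent_iff (hh : h ∈ 𝐍 Y) : h * t * h⁻¹ ∈ 𝐂 Y ↔ t ∈ 𝐂 Y :=
  (mem_normalizer_iff.1 (CL.MSS.le_normalizer_centralizer le_rfl hh) t).symm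

/-- the fixed space of an element of `h T h⁻¹` -/
theorem fix_cj (hh : h ∈ 𝐍 Y) (hy : y ∈ Y) (ht : t ∈ h •ᶜ T) (n : t ∉ 𝐂 Y) (e : t * y = y * t) :
    y ∈ h •ᶜ oz J := by
  obtain ⟨t, ht', rfl⟩ := mem_cj'.1 ht
  refine mem_cj.2 (p.fix (conj_mem_of_normalizes' le_rfl hh hy) (p.t.le ht') (fun k => n ((cent_iff hh).2 k)) ?_)
  calc t * (h⁻¹ * y * h) = h⁻¹ * (h * t * h⁻¹ * y) * h := by group
    _ = _ := by rw [e]; group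

theorem comm_cj (hh : h ∈ 𝐍 Y) (hy : y ∈ Y) (ht : t ∈ h •ᶜ T) : ⁅y, t⁆ ∈ h •ᶜ oz J := by
  have := p.comm (conj_mem_of_normalizes' le_rfl hh hy) (mem_cj.1 ht)
  rw [mem_cj]
  convert this using 1
  simp only [commutatorElement_def]; group

theorem memZ_cj (hh : h ∈ 𝐍 Y) (ht : t ∈ h •ᶜ T) : t ∈ h •ᶜ oz J ↔ t ∈ 𝐂 Y := by
  obtain ⟨t, ht', rfl⟩ := mem_cj'.1 ht
  rw [conj_mem_cj_iff, cent_iff hh, p.symm.memZ ht']

theorem ZY_cj (hh : h ∈ 𝐍 Y) : h •ᶜ oz J ≤ Y := cj_le_of_mem_normalizer p.ZY hh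

theorem ZT_cj : h •ᶜ oz J ≤ 𝐂 (h •ᶜ T : Subgroup X) := by
  rw [← cj_centralizer]
  exact cj_mono h ((oz_cent J).trans (centralizer_le p.t.le))

theorem exists_T (h : X) (hh : h ∈ 𝐍 Y) : ∃ t ∈ h •ᶜ T, t ∉ 𝐂 Y :=
  let ⟨_, ht, n⟩ := SetLike.not_le_iff_exists.1 p.symm.nc
  ⟨_, conj_mem_cj ht, fun k => n ((cent_iff hh).1 k)⟩

end Pq

namespace Sq
variable (p : Sq G J Y T V x)
include p

theorem JH : J ≤ Hq G J Y := le_inf p.JG p.toPq.nQ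

theorem HY : Hq G J Y ≤ 𝐍 Y := inf_le_right.trans p.toPq.normY

theorem xH : x ∈ Hq G J Y := mem_inf.2 ⟨p.xG, mem_normalizer_of_cj_le (cj_le_iff_forall.2 fun y hy => by
  simpa using mul_mem (p.toPq.YQ (p.xq y hy)) hy)⟩

theorem xZ : x ∉ 𝐍 (oz J) := fun e => p.xV (p.good ⟨p.xG, e⟩)

theorem cjTH (hh : h ∈ Hq G J Y) : h •ᶜ T ≤ Hq G J Y := cj_le_of_mem (p.t.le.trans p.JH) hh

end Sq

end CL.NZ
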