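import Cfsg.Agent.FGS.NZ.Defs
import Cfsg.Agent.PLOC.PNormal

/-!
# From two non-commuting modules to a normalized pair
-/

set_option autoImplicit false
set_option linter.unusedSectionVars false
open Cfsg Subgroup CL.Th CL.MSS CL.Push CL.BHS CL.B2
open CL.CY (Wq)
open CL.FZ (P2)
open scoped commutatorElement

namespace CL.NZ

variable {X : Type*} [Group X] [Finite X] {G J Y T V D P N : Subgroup X} {a b c g h k s t u v w x y z : X}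

variable {B W W' : Subgroup X}

namespace Pair

theorem key (p : Wq B W) (p' : Wq B W') (m : ¬ W ≤ 𝐂 W') : (𝐂 W).relIndex W' = (𝐂 W').relIndex B := by
  rw [p'.idx, ← inf_relIndex_right, ← inf_relIndex_right (𝐂 B)]
  congr 1
  ext w
  exact and_congr_left fun hw => p.inf_cent p' m hw

theorem idx (q : Wq B W) (q' : Wq B W') (n : ¬ W ≤ 𝐂 W') : (𝐂 W).relIndex W' = (𝐂 W).relIndex B := by
  have k1 := key q q' n
  have k2 := key q' q fun m => n (cent_symm m)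
  have l1 := relIndex_le_of_le_right (H := 𝐂 W) q'.le index_ne_zero_of_finite
  have l2 := relIndex_le_of_le_right (H := 𝐂 W') q.le index_ne_zero_of_finite
  omega

theorem elem (q : Wq B W) : IsElementaryAbelian 2 W :=
  elemAb_iff.2 ⟨fun _ ha b hb => (q.ab ha b hb).symm, fun a ha => (pow_two a).trans (q.two a ha)⟩

theorem side {A : Subgroup X} (q : Wq B W) (q' : Wq B W') (n : ¬ W ≤ 𝐂 W') (hA : A ∈ Am B) (m : ¬ A ≤ 𝐂 W) :
    A ≤ 𝐂 W' ∧ W' ≤ A := by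
  have sq : ∀ a ∈ A, a * a = 1 := fun a ha => (pow_two a).symm.trans (hA.2.1.2 a ha)
  obtain ⟨s, hs, ns⟩ := SetLike.not_le_iff_exists.1 m
  have s' := (q.invol q' n (hA.1 hs) (sq s hs)).resolve_left ns
  have k : A ≤ 𝐂 W' := fun a ha => (q.invol q' n (hA.1 ha) (sq a ha)).elim (fun e =>
    ((𝐂 W').mul_mem_cancel_right s').1 ((q.invol q' n (hA.1 (mul_mem ha hs)) (sq _ (mul_mem ha hs))).resolve_left
      fun f => ns (((𝐂 W).mul_mem_cancel_left e).1 f))) id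
  exact ⟨k, le_of_mem_maxElemAbIn hA q'.le (elem q') (cent_symm k)⟩

theorem ex (q : Wq B W) (q' : Wq B W') (n : ¬ W ≤ 𝐂 W') (j : ¬ Jt B ≤ 𝐂 W) :
    ∃ A ∈ Am B, A ≤ 𝐂 W' ∧ W' ≤ A := by
  rw [thompsonSubgroupOf_le_iff] at j
  push Not at j
  obtain ⟨A, hA, m⟩ := j
  exact ⟨A, hA, side q q' n hA m⟩

theorem card_sup {A Y : Subgroup X} (h : Y ≤ 𝐂 A) :
    Nat.card (Y ⊔ A : Subgroup X) = Nat.card A * A.relIndex Y := by
  have h1 := CL.PN.card_sup_mul_card_inf (H := Y) (K := A) (h.trans (centralizer_le_normalizer _))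
  have h2 := CL.PN.card_inf_mul_relIndex A Y
  rw [inf_comm] at h2
  rw [← h2] at h1
  have p : 0 < Nat.card (Y ⊓ A : Subgroup X) := Nat.card_pos
  refine Nat.eq_of_mul_eq_mul_right p (h1.trans ?_)
  ring

theorem ns (jj : Jt J = J) (q : Wq J W) (q' : Wq J W') (n : ¬ W ≤ 𝐂 W') :
    Jt (Qy J W) = Qy J W ∧ (𝐂 J).relIndex W = (𝐂 J).relIndex (oz (Qy J W)) := by
  have n' : ¬ W' ≤ 𝐂 W := fun m => n (cent_symm m)
  have WQ : W ≤ Qy J W := le_inf q.le q.ab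
  have cA : ∀ A ∈ Am J, Nat.card A ≤ Nat.card (𝐂 W ⊓ A : Subgroup X) * (𝐂 J).relIndex W := fun A hA => by
    rw [← CL.PN.card_inf_mul_relIndex (𝐂 W) A, ← q.idx]
    exact Nat.mul_le_mul_left _ (relIndex_le_of_le_right hA.1 index_ne_zero_of_finite)
  have rep : ∀ A ∈ Am J, A ≤ 𝐂 W' → 𝐂 W ⊓ A ≤ Jt (Qy J W) := fun A hA c => by
    have e : IsElementaryAbelian 2 (W ⊔ (𝐂 W ⊓ A) : Subgroup X) :=
      CL.Th.elemAb_sup (elem q) (elemAb_inf_right hA.2.1 _) (cent_symm inf_le_left)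
    have l : W ⊔ (𝐂 W ⊓ A) ≤ Qy J W := sup_le WQ (le_inf (inf_le_right.trans hA.1) inf_le_left)
    have m : W ⊔ (𝐂 W ⊓ A) ∈ Am J := by
      refine mem_maxElemAbIn_of_card_le hA (l.trans inf_le_left) e ((cA A hA).trans ?_)
      rw [card_sup (cent_symm inf_le_left)]
      refine Nat.mul_le_mul_left _ ?_
      rw [← inf_relIndex_right (𝐂 W ⊓ A)]
      exact relIndex_le_of_le_left (fun w hw => (q'.inf_cent q n' hw.2).1 (c hw.1.2)) index_ne_zero_of_finite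
    exact le_sup_right.trans (le_thompsonSubgroupOf (mem_maxElemAbIn_of_le m l inf_le_left))
  obtain ⟨A, hA, c, l⟩ := ex q q' n (fun e => n' (q'.le.trans (jj.ge.trans e)))
  have nQ : J ≤ 𝐍 (Qy J W) := CL.MSS.le_normalizer_inf le_normalizer (CL.MSS.le_normalizer_centralizer q.nB)
  refine ⟨le_antisymm (thompsonSubgroupOf_le _) fun g hg => ?_, le_antisymm ?_ ?_⟩
  · have k : Jt J ≤ Jt (Qy J W) ⊔ W' := thompsonSubgroupOf_le_iff.2 fun D hD s hs => by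
      by_cases m : D ≤ 𝐂 W
      · exact mem_sup_left (le_thompsonSubgroupOf (mem_maxElemAbIn_of_le hD (le_inf hD.1 m) inf_le_left) hs)
      · obtain ⟨c', l'⟩ := side q q' n hD m
        obtain ⟨u, hu, f⟩ := CL.CY.BigA.cover (C := 𝐂 W) q'.le (idx q q' n) (hD.1 hs)
        have := mul_mem (mem_sup_right (S := Jt (Qy J W)) hu)
          (mem_sup_left (rep D hD c' (mem_inf.2 ⟨f, mul_mem (inv_mem (l' hu)) hs⟩)))
        rwa [mul_inv_cancel_left] at this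
    obtain ⟨d, hd, u, hu, rfl⟩ := (mem_sup_of_normalizes_left
      ((q'.le.trans nQ).trans (normalizer_le_normalizer_thompsonSubgroupOf _))).1 (k (jj.ge hg.1))
    exact mul_mem hd (rep A hA c ⟨((𝐂 W).mul_mem_cancel_left (thompsonSubgroupOf_le _ hd).2).1 hg.2, l hu⟩)
  · exact relIndex_le_of_le_right (fun w hw => mem_oz.2 ⟨WQ hw, cent_symm inf_le_right hw,
      (pow_two w).trans (q.two w hw)⟩) index_ne_zero_of_finite
  · have l0 : 𝐂 W ⊓ A ≤ Qy J W := le_inf (inf_le_right.trans hA.1) inf_le_left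
    have cY : oz (Qy J W) ≤ 𝐂 (𝐂 W ⊓ A : Subgroup X) := fun y hy => centralizer_le l0 (mem_oz.1 hy).2.1
    have e : IsElementaryAbelian 2 (oz (Qy J W) ⊔ (𝐂 W ⊓ A) : Subgroup X) :=
      CL.Th.elemAb_sup (CL.Th.elemAb_omegaZ _) (elemAb_inf_right hA.2.1 _) cY
    have b := (hA.2.2 _ (sup_le (fun y (hy : y ∈ oz (Qy J W)) => (mem_inf.1 (mem_oz.1 hy).1).1) (l0.trans inf_le_left)) e).trans (cA A hA)
    rw [card_sup cY] at b
    refine le_trans ?_ (Nat.le_of_mul_le_mul_left b Nat.card_pos)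
    rw [← inf_relIndex_right (𝐂 W ⊓ A)]
    refine relIndex_le_of_le_left (fun y hy j hj => ?_) index_ne_zero_of_finite
    obtain ⟨u, hu, f⟩ := CL.CY.BigA.cover (C := 𝐂 W) q'.le (idx q q' n) hj
    have e1 := (mem_oz.1 hy.2).2.1 _ (show u⁻¹ * j ∈ Qy J W from mem_inf.2 ⟨mul_mem (inv_mem (q'.le hu)) hj, f⟩)
    have e2 := c hy.1.2 u hu
    calc j * y = u * (u⁻¹ * j * y) := by group
      _ = y * j := by rw [e1, ← mul_assoc, e2]; group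

theorem W_le (q : Wq J W) : W ≤ oz (Qy J W) := fun w hw =>
  mem_oz.2 ⟨⟨q.le hw, q.ab hw⟩, cent_symm inf_le_right hw, (pow_two w).trans (q.two w hw)⟩

theorem Q_eq (q : Wq J W) : Qy J (oz (Qy J W)) = Qy J W :=
  le_antisymm (inf_le_inf_left _ (centralizer_le (W_le q)))
    (le_inf inf_le_left (cent_symm fun _ hy => (mem_oz.1 hy).2.1))

theorem cY (q : Wq J W) (hb : b ∈ J) : b ∈ 𝐂 (oz (Qy J W)) ↔ b ∈ 𝐂 W :=
  ⟨fun e => ((Q_eq q).le ⟨hb, e⟩).2, fun e => ((Q_eq q).ge ⟨hb, e⟩).2⟩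

theorem idxY (q : Wq J W) : (𝐂 (oz (Qy J W))).relIndex J = (𝐂 W).relIndex J := by
  rw [← inf_relIndex_left J (𝐂 (oz (Qy J W))), ← inf_relIndex_left J (𝐂 W)]
  exact congrArg (fun U : Subgroup X => U.relIndex J) (Q_eq q)

theorem wqY (jj : Jt J = J) (q : Wq J W) (q' : Wq J W') (n : ¬ W ≤ 𝐂 W') : Wq J (oz (Qy J W)) := by
  have e := (ns jj q q' n).2
  have nQ : J ≤ 𝐍 (Qy J W) := CL.MSS.le_normalizer_inf le_normalizer (CL.MSS.le_normalizer_centralizer q.nB)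
  refine ⟨fun y hy => (mem_oz.1 hy).1.1, CL.Th.elemAb_le_centralizer (CL.Th.elemAb_omegaZ _),
    fun y hy => (pow_two y).symm.trans (mem_oz.1 hy).2.2,
    nQ.trans (normalizer_cj_invariant fun g f => by rw [cj_oz, f]), by rw [idxY q, q.idx, e],
    fun b hb nb y hy m => ?_, fun y hy b hb s hs m => ?_⟩
  · obtain ⟨w, hw, f⟩ := CL.CY.BigA.cover (C := 𝐂 J) (W_le q) e hy
    refine ((𝐂 J).mul_mem_cancel_left (inv_mem (q.fix b hb (fun k => nb ((cY q hb).2 k)) w hw ?_))).1 f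
    have e1 := f b hb
    calc b * w = b * y * (w⁻¹ * y)⁻¹ := by group
      _ = y * (b * (w⁻¹ * y)⁻¹) := by rw [m, mul_assoc]
      _ = y * ((w⁻¹ * y)⁻¹ * b) := by rw [(show Commute b (w⁻¹ * y) from e1).inv_right.eq]
      _ = w * b := by group
  · obtain ⟨w, hw, f⟩ := CL.CY.BigA.cover (C := 𝐂 J) (W_le q) e hy
    have e1 := f b hb
    refine (q.sq w hw b hb s ((Q_eq q).le hs) ?_).imp (fun k => ((𝐂 J).mul_mem_cancel_left (inv_mem k)).1 f)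
      (cY q hb).2
    rw [← m, commutatorElement_def, commutatorElement_def]
    calc w * b * w⁻¹ * b⁻¹ = w * (b * (w⁻¹ * y)) * y⁻¹ * b⁻¹ := by group
      _ = y * b * y⁻¹ * b⁻¹ := by rw [e1]; group

end Pair

/-- Members of `Am B` lie in `C(W)` or `C(W')` (`Wq.invol`); one not in `C(W)` contains `W'` (maximality), so `W, W' ≤ J = Jt B`.
`|W' : C_{W'}(W)| = |B : C_B(W)|` (see the proof of `Wq.invol`), so `J` has the same index; `C_W(J) = C_W(B)` (`Wq.inf_cent`). -/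
theorem wq_J (hp : IsPGroup 2 B) (q : Wq B W) (q' : Wq B W') (n : ¬ W ≤ 𝐂 W') (j : ¬ Jt B ≤ 𝐂 W)
    (j' : ¬ Jt B ≤ 𝐂 W') : Wq (Jt B) W ∧ (𝐂 W).relIndex (Jt B) = (𝐂 W).relIndex B := by
  have _ := hp
  have n' : ¬ W' ≤ 𝐂 W := fun m => n (cent_symm m)
  obtain ⟨A, hA, -, l⟩ := Pair.ex q q' n j
  obtain ⟨A', hA', -, l'⟩ := Pair.ex q' q n' j'
  have W'J := l.trans (le_thompsonSubgroupOf hA)
  have JB := thompsonSubgroupOf_le (p := 2) B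
  have e : (𝐂 W).relIndex (Jt B) = (𝐂 W).relIndex B :=
    le_antisymm (relIndex_le_of_le_right JB index_ne_zero_of_finite)
      ((Pair.idx q q' n).ge.trans (relIndex_le_of_le_right W'J index_ne_zero_of_finite))
  refine ⟨⟨l'.trans (le_thompsonSubgroupOf hA'), q.ab, q.two, JB.trans q.nB, ?_,
    fun b hb nb w hw m => centralizer_le JB (q.fix b (JB hb) nb w hw m),
    fun w hw b hb y hy m => (q.sq w hw b (JB hb) y ⟨JB hy.1, hy.2⟩ m).imp_left (centralizer_le JB ·)⟩, e⟩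
  rw [e, q.idx, ← inf_relIndex_right, ← inf_relIndex_right (𝐂 (Jt B))]
  congr 1
  ext w
  exact and_congr_left fun hw => ⟨(centralizer_le JB ·), fun m => (q'.inf_cent q n' hw).1 (centralizer_le W'J m)⟩

/-- `Q = J ⊓ C(W)`, `q = |J : Q| = |W : C_W(J)|`, `J = W' Q`.  Let `A ∈ Am J`, `A ≤ C(W')`; then `W' ≤ A`, `A = W' (A ⊓ Q)`, `|A : A ⊓ Q| ≤ q`,
`A ⊓ W ≤ C_W(W') = C_W(J)`, so `(A ⊓ Q) W ∈ Am J` and it lies in `Q`.  Hence `Am Q ⊆ Am J`, `J = W' Jt Q`, and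
`Q = (W' ⊓ Q) Jt Q = Jt Q`.  For `Y = oz Q ≥ W`: `(A ⊓ Q) Y` is elementary abelian, so `|Y : Y ⊓ A| ≤ q`, `Y ⊓ A ≤ C_Y(J)`, so
`Y = W C_Y(J)` (`CY.BigA.cover`). -/
theorem norm_side (hp : IsPGroup 2 J) (jj : Jt J = J) (q : Wq J W) (q' : Wq J W') (n : ¬ W ≤ 𝐂 W') :
    Jt (Qy J W) = Qy J W ∧ ∀ y ∈ oz (Qy J W), ∃ w ∈ W, w⁻¹ * y ∈ 𝐂 J :=
  have _ := hp
  ⟨(Pair.ns jj q q' n).1, fun _ hy => CL.CY.BigA.cover (C := 𝐂 J) (Pair.W_le q) (Pair.ns jj q q' n).2 hy⟩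

/-- `Y = oz (J ⊓ C(W))`, `T = oz (J ⊓ C(W'))`; `J ⊓ C(Y) = J ⊓ C(W)` as `W ≤ Y`. -/
theorem exists_pq (hp : IsPGroup 2 B) (c : Nq G B W x) (q' : Wq B W') (n : ¬ W ≤ 𝐂 W') (j' : ¬ Jt B ≤ 𝐂 W') :
    ∃ Y T, Pq (Jt B) Y T ∧ (∀ y ∈ Qy (Jt B) Y, x * y * x⁻¹ * y⁻¹ ∈ Y) ∧
      (∀ b ∈ Jt B, b ∉ 𝐂 Y → ∀ b' ∈ Jt B, b' ∉ 𝐂 Y → ∃ g ∈ G ⊓ 𝐍 (Jt B),
        (∀ y ∈ Qy (Jt B) Y, g * y * g⁻¹ * y⁻¹ ∈ Y) ∧ (g * b * g⁻¹)⁻¹ * b' ∈ 𝐂 Y) ∧
      2 < (𝐂 Y).relIndex (Jt B) := by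
  have n' : ¬ W' ≤ 𝐂 W := fun m => n (cent_symm m)
  obtain ⟨q1, e⟩ := wq_J hp c.toWq q' n c.jq j'
  obtain ⟨q2, -⟩ := wq_J hp q' c.toWq n' j' c.jq
  have jj : Jt (Jt B) = Jt B := thompsonSubgroupOf_idem B
  have JB := thompsonSubgroupOf_le (p := 2) B
  refine ⟨oz (Qy (Jt B) W), oz (Qy (Jt B) W'), ⟨hp.to_le JB, Pair.wqY jj q1 q2 n, Pair.wqY jj q2 q1 n',
    fun m => n (((Pair.W_le q1).trans m).trans (centralizer_le (Pair.W_le q2))), by rw [Pair.Q_eq q1],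
    by rw [Pair.Q_eq q2], by rw [Pair.Q_eq q1, (Pair.ns jj q1 q2 n).1], by rw [Pair.Q_eq q2, (Pair.ns jj q2 q1 n').1]⟩,
    fun y hy => ?_, fun b hb nb b' hb' nb' => ?_, by rw [Pair.idxY q1, e]; exact c.q4⟩
  · rw [Pair.Q_eq q1] at hy
    exact Pair.W_le q1 (c.xq y ⟨JB hy.1, hy.2⟩)
  · obtain ⟨g, hg, f1, f2⟩ := c.tr b (JB hb) (fun k => nb ((Pair.cY q1 hb).2 k)) b' (JB hb')
      fun k => nb' ((Pair.cY q1 hb').2 k)
    have gJ := normalizer_le_normalizer_thompsonSubgroupOf (p := 2) B hg.2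
    refine ⟨g, ⟨hg.1, gJ⟩, fun y hy => ?_, (Pair.cY q1 (mul_mem (inv_mem ((mem_normalizer_iff.1 gJ b).1 hb)) hb')).2 f2⟩
    rw [Pair.Q_eq q1] at hy
    exact Pair.W_le q1 (f1 y ⟨JB hy.1, hy.2⟩)

end CL.NZ
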